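import Cfsg.Agent.Lib.Helper82.CY2U.TI

set_option autoImplicit false
set_option linter.unusedSectionVars false

namespace Cfsg.Agent.Lib.Helper82.PI5B

open scoped BigOperators ComplexConjugate
open Cfsg Cfsg.Agent.Lib.Helper20 Cfsg.Agent.Lib.Helper81 Cfsg.Agent.Lib.Helper80
open Cfsg.Agent.Lib.Helper80.GA Cfsg.Agent.Lib.Helper5 Cfsg.Agent.Lib.Helper83.Wat
open Cfsg.Agent.Lib.Helper82.CY2U

variable {p : ℕ} [Fact p.Prime] {M : Ideal AlgInt} {G : Type*} [Group G] [Fintype G]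

theorem b1_gen {Z : Subgroup G} (hZc : Nat.card Z = p) :
    ∃ z : G, orderOf z = p ∧ Z = Subgroup.zpowers z := by
  have hp := (Fact.out : p.Prime)
  have hnt : Nontrivial Z := by
    rw [← Finite.one_lt_card_iff_nontrivial, hZc]
    exact hp.one_lt
  obtain ⟨w, hw⟩ := exists_ne (1 : Z)
  have ho : orderOf w = p := by
    have h1 : orderOf w ∣ p := by rw [← hZc]; exact orderOf_dvd_natCard w
    rcases (Nat.dvd_prime hp).1 h1 with h | h
    · exact absurd (orderOf_eq_one_iff.1 h) hw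
    · exact h
  refine ⟨(w : G), by rw [Subgroup.orderOf_coe]; exact ho, ?_⟩
  symm
  apply Subgroup.eq_of_le_of_card_ge (Subgroup.zpowers_le.2 w.2)
  rw [Nat.card_zpowers, Subgroup.orderOf_coe, ho, hZc]

theorem b1_z_pow {D : Subgroup G} (hD : IsPGroup p D) (hcyc : IsCyclic D) {z : G} (hz : z ∈ D)
    (hzo : orderOf z = p) {x u : G} (hx : x ∈ AA p (Nn (Subgroup.zpowers z)) D)
    (hu : IsPPart p x u) : ∃ i : ℤ, u ^ i = z := by
  have hp := (Fact.out : p.Prime)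
  obtain ⟨u', hu', hu1, c, hc, hcd⟩ := hx
  have huu := isPPart_unique hp hu hu'
  subst huu
  have hd1 : c * u * c⁻¹ ≠ 1 := by
    intro h
    exact hu1 (conj_eq_one_iff.mp h)
  obtain ⟨i, hi⟩ := ti_mem_zpowers hD hcyc hz hzo hcd hd1
  have h1 : z = c * u ^ i * c⁻¹ := by
    rw [← conj_zpow]
    exact hi.symm
  have h2 : c⁻¹ * z * c = u ^ i := by
    rw [h1]
    group
  have hwZ : c⁻¹ * z * c ∈ Subgroup.zpowers z := by
    have hc' : c ∈ Subgroup.normalizer ((Subgroup.zpowers z : Subgroup G) : Set G) := hc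
    rw [Subgroup.mem_normalizer_iff] at hc'
    rw [hc' (c⁻¹ * z * c)]
    have : c * (c⁻¹ * z * c) * c⁻¹ = z := by group
    rw [this]
    exact Subgroup.mem_zpowers z
  have hz1 : z ≠ 1 := by
    rintro rfl
    rw [orderOf_one] at hzo
    exact hp.one_lt.ne hzo
  have hw1 : c⁻¹ * z * c ≠ 1 := by
    intro h
    apply hz1
    have : z = c * (c⁻¹ * z * c) * c⁻¹ := by group
    rw [this, h]
    group
  have hPZ : IsPGroup p (Subgroup.zpowers z) :=
    IsPGroup.of_card (n := 1) (by rw [Nat.card_zpowers, hzo, pow_one])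
  obtain ⟨j, hj⟩ := ti_mem_zpowers hPZ inferInstance (Subgroup.mem_zpowers z) hzo hwZ hw1
  refine ⟨i * j, ?_⟩
  rw [zpow_mul, ← h2]
  exact hj

theorem b1_cent {D : Subgroup G} (hD : IsPGroup p D) (hcyc : IsCyclic D) {z : G} (hz : z ∈ D)
    (hzo : orderOf z = p) {x u : G} (hx : x ∈ AA p (Nn (Subgroup.zpowers z)) D)
    (hu : IsPPart p x u) : Subgroup.centralizer ({u} : Set G) ≤ Nn (Subgroup.zpowers z) := by
  obtain ⟨i, hi⟩ := b1_z_pow hD hcyc hz hzo hx hu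
  intro y hy
  rw [Subgroup.mem_centralizer_iff] at hy
  have hyu : Commute y u := (hy u rfl).symm
  have h1 : y ∈ Subgroup.centralizer ((Subgroup.zpowers z : Subgroup G) : Set G) := by
    rw [ti_mem_Cn_iff, ← hi]
    exact hyu.zpow_right i
  exact Subgroup.centralizer_le_normalizer _ h1

theorem b1_ti {D : Subgroup G} (hD : IsPGroup p D) (hcyc : IsCyclic D) {z : G} (hz : z ∈ D)
    (hzo : orderOf z = p) {x g : G} (hx : x ∈ AA p (Nn (Subgroup.zpowers z)) D)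
    (hgx : g * x * g⁻¹ ∈ AA p (Nn (Subgroup.zpowers z)) D) : g ∈ Nn (Subgroup.zpowers z) := by
  have hp := (Fact.out : p.Prime)
  obtain ⟨u, hu, -, -⟩ := id hx
  obtain ⟨i, hi⟩ := b1_z_pow hD hcyc hz hzo hx hu
  obtain ⟨j, hj⟩ := b1_z_pow hD hcyc hz hzo hgx (isPPart_conj hu g)
  obtain ⟨-, -, -, ⟨k, hk⟩, -⟩ := id hu
  have hPU : IsPGroup p (Subgroup.zpowers u) := IsPGroup.of_card (n := k) (by rw [Nat.card_zpowers, hk])
  have hCU : IsCyclic (Subgroup.zpowers u) := inferInstance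
  have hz1 : z ≠ 1 := by
    rintro rfl
    rw [orderOf_one] at hzo
    exact hp.one_lt.ne hzo
  have hzU : z ∈ Subgroup.zpowers u := ⟨i, hi⟩
  have hz' : g⁻¹ * z * g = u ^ j := by
    rw [← hj, conj_zpow]
    group
  have hzU' : g⁻¹ * z * g ∈ Subgroup.zpowers u := ⟨j, hz'.symm⟩
  have ho' : orderOf (g⁻¹ * z * g) = p := by
    have : g⁻¹ * z * g = MulAut.conj g⁻¹ z := by simp
    rw [this, MulEquiv.orderOf_eq, hzo]
  have hz1' : g⁻¹ * z * g ≠ 1 := by
    intro h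
    rw [h, orderOf_one] at ho'
    exact hp.one_lt.ne ho'
  -- (a) and (b)
  obtain ⟨a, ha⟩ := ti_mem_zpowers hPU hCU hzU' ho' hzU hz1
  obtain ⟨b, hb⟩ := ti_mem_zpowers hPU hCU hzU hzo hzU' hz1'
  have ha' : z ^ a = g⁻¹ * z * g := ha
  have hb' : (g⁻¹ * z * g) ^ b = z := hb
  have hb2 : g * z * g⁻¹ = z ^ b := by
    have h1 : (g⁻¹ * z * g) ^ b = g⁻¹ * z ^ b * g := by
      have := conj_zpow (a := g⁻¹) (b := z) (i := b)
      simpa using this
    rw [h1] at hb'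
    have h2 : z ^ b = g * (g⁻¹ * z ^ b * g) * g⁻¹ := by group
    rw [h2, hb']
  show g ∈ Subgroup.normalizer ((Subgroup.zpowers z : Subgroup G) : Set G)
  rw [Subgroup.mem_normalizer_iff]
  intro h
  constructor
  · rintro ⟨m, rfl⟩
    refine ⟨b * m, ?_⟩
    show z ^ (b * m) = g * z ^ m * g⁻¹
    rw [zpow_mul, ← hb2, conj_zpow]
  · rintro ⟨m, hm⟩
    have hm' : z ^ m = g * h * g⁻¹ := hm
    refine ⟨a * m, ?_⟩
    show z ^ (a * m) = h
    rw [zpow_mul, ha']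
    have h1 : (g⁻¹ * z * g) ^ m = g⁻¹ * z ^ m * g := by
      have := conj_zpow (a := g⁻¹) (b := z) (i := m)
      simpa using this
    rw [h1, hm']
    group


theorem cent_A {P Z H : Subgroup G} (hP : IsPGroup p P) (hcyc : IsCyclic P) (hZ : Z ≤ P)
    (hZc : Nat.card Z = p) (hH : H = Subgroup.normalizer (Z : Set G)) {x u : G}
    (hx : x ∈ AA p H P) (hu : IsPPart p x u) : Subgroup.centralizer ({u} : Set G) ≤ H := by
  obtain ⟨z, hzo, rfl⟩ := b1_gen hZc
  subst hH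
  exact b1_cent hP hcyc (hZ (Subgroup.mem_zpowers z)) hzo hx hu

theorem ti_A {P Z H : Subgroup G} (hP : IsPGroup p P) (hcyc : IsCyclic P) (hZ : Z ≤ P)
    (hZc : Nat.card Z = p) (hH : H = Subgroup.normalizer (Z : Set G)) {x g : G}
    (hx : x ∈ AA p H P) (hgx : g * x * g⁻¹ ∈ AA p H P) : g ∈ H := by
  obtain ⟨z, hzo, rfl⟩ := b1_gen hZc
  subst hH
  exact b1_ti hP hcyc (hZ (Subgroup.mem_zpowers z)) hzo hx hgx

end Cfsg.Agent.Lib.Helper82.PI5B
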