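import Cfsg.Agent.Lib.Helper82.CY2U.TI
import Cfsg.Agent.Lib.Helper82.CY2U.LOC3
import Cfsg.Agent.Lib.Helper82.CY2U.INB
import Cfsg.Agent.Lib.Helper82.CY2U.ISO
import Cfsg.Agent.Lib.Helper82.CY2U.VANR
import Cfsg.Agent.Lib.Helper82.CY2U.MULT

set_option autoImplicit false
set_option linter.unusedSectionVars false

namespace Cfsg.Agent.Lib.Helper82.PI5B

open scoped BigOperators ComplexConjugate
open Cfsg Cfsg.Agent.Lib.Helper20 Cfsg.Agent.Lib.Helper81 Cfsg.Agent.Lib.Helper80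
open Cfsg.Agent.Lib.Helper80.GA Cfsg.Agent.Lib.Helper5 Cfsg.Agent.Lib.Helper83.Wat
open Cfsg.Agent.Lib.Helper82.CY2U

variable {p : ℕ} [Fact p.Prime] {M : Ideal AlgInt} {G : Type*} [Group G] [Fintype G]

theorem van_A (hM : IsPModular p M) {P H : Subgroup G} {c : Set (IrrCharacter H)}
    (hc : IsPBlock M c) (hcD : IsDefectGroup p M c (P.subgroupOf H)) :
    ∀ θ ∈ c, ∀ x : H, ¬ IsPRegular p x → (x : G) ∉ AA p H P → (θ : H → ℂ) x = 0 := by
  classical
  have hp : p.Prime := Fact.out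
  intro θ hθ x hx hxA
  haveI : Fintype H := Fintype.ofFinite _
  obtain ⟨u, hu⟩ := exists_isPPart (p := p) hp x
  refine vanish_off_defect_groups hM c hc hu ?_ θ hθ
  intro D' hD' huD'
  apply hxA
  obtain ⟨d, -, hd⟩ := (isDef_of_isDefectGroup hM hc hD').exists_conj
    (isDef_of_isDefectGroup hM hc hcD)
  obtain ⟨y, hy1, hy2, hy3, hy4⟩ := hu
  refine ⟨(u : G), ⟨(y : G), ?_, ?_, ?_, ?_⟩, ?_, (d : G), d.2, ?_⟩
  · have := congrArg Subtype.val hy1
    simpa using this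
  · have := congrArg Subtype.val hy2.eq
    exact this
  · obtain ⟨k, hk⟩ := hy3
    exact ⟨k, by rw [Subgroup.orderOf_coe]; exact hk⟩
  · rw [Subgroup.orderOf_coe]; exact hy4
  · intro h1
    apply hx
    have hu1 : u = 1 := Subtype.ext h1
    rw [hu1, one_mul] at hy1
    rw [← hy1]
    exact hy4
  · have h2 : d * u * d⁻¹ ∈ cS d D' := by
      rw [mem_cS]
      have : d⁻¹ * (d * u * d⁻¹) * d = u := by group
      rw [this]; exact huD'
    rw [← hd] at h2
    exact h2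

theorem supp_A (hM : IsPModular p M) {P H : Subgroup G} {c : Set (IrrCharacter H)}
    (hc : IsPBlock M c) (hcD : IsDefectGroup p M c (P.subgroupOf H)) [Fintype (IrrCharacter H)]
    (a : IrrCharacter H → ℂ) (ha : ∀ η, η ∉ c → a η = 0)
    (hreg : ∀ h : H, IsPRegular p h → ∑ η : IrrCharacter H, a η * (η : H → ℂ) h = 0) :
    ∀ h : H, ∑ η : IrrCharacter H, a η * (η : H → ℂ) h ≠ 0 → (h : G) ∈ AA p H P := by
  intro h h0
  by_contra hA
  apply h0
  by_cases hr : IsPRegular p h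
  · exact hreg h hr
  · apply Finset.sum_eq_zero
    intro η _
    by_cases hη : η ∈ c
    · rw [van_A hM hc hcD η hη h hr hA, mul_zero]
    · rw [ha η hη, zero_mul]

end Cfsg.Agent.Lib.Helper82.PI5B
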