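import Cfsg.Agent.Lib.Helper82.CY2U.TI
import Cfsg.Agent.Lib.Helper82.CY2U.LOC3
import Cfsg.Agent.Lib.Helper82.CY2U.INB
import Cfsg.Agent.Lib.Helper82.CY2U.ISO
import Cfsg.Agent.Lib.Helper82.CY2U.VANR
import Cfsg.Agent.Lib.Helper82.CY2U.MULT
import Cfsg.Agent.Lib.Helper19.PI5B.INB2
import Cfsg.Agent.Lib.Helper19.PI5B.VAL
set_option autoImplicit false
set_option linter.unusedSectionVars false

namespace Cfsg.Agent.Lib.Helper82.PI5B

open scoped BigOperators ComplexConjugate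
open Cfsg Cfsg.Agent.Lib.Helper20 Cfsg.Agent.Lib.Helper81 Cfsg.Agent.Lib.Helper80
open Cfsg.Agent.Lib.Helper80.GA Cfsg.Agent.Lib.Helper5 Cfsg.Agent.Lib.Helper83.Wat
open Cfsg.Agent.Lib.Helper82.CY2U

variable {p : ℕ} [Fact p.Prime] {M : Ideal AlgInt} {G : Type*} [Group G] [Fintype G]

theorem inb_A (hM : IsPModular p M) {B : Set (IrrCharacter G)} (H : Subgroup G)
    {c : Set (IrrCharacter H)} (hind : IsInducedBlock M H c B) [Fintype (IrrCharacter H)]
    (a : IrrCharacter H → ℂ) (ha : ∀ η, η ∉ c → a η = 0)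
    (hsupp : ∀ h : H, ∑ η : IrrCharacter H, a η * (η : H → ℂ) h ≠ 0 → ∀ u : G,
      IsPPart p (h : G) u → Subgroup.centralizer ({u} : Set G) ≤ H)
    {χ : IrrCharacter G} (hχ : χ ∉ B) :
    classInner (indFun H (fun h : H => ∑ η : IrrCharacter H, a η * (η : H → ℂ) h)) (χ : G → ℂ) = 0 :=
  Cfsg.Agent.Lib.Helper19.PI5B.inb_lin hM H hind ha hsupp hχ

theorem iso_A (H : Subgroup G) [Fintype H] (A : Set G)
    (hTI : ∀ x ∈ A, ∀ g : G, g * x * g⁻¹ ∈ A → g ∈ H)
    (α α' : H → ℂ) (hcl' : IsClassFunction H α') (hα : ∀ h : H, α h ≠ 0 → (h : G) ∈ A)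
    (hα' : ∀ h : H, α' h ≠ 0 → (h : G) ∈ A) :
    classInner (indFun H α) (indFun H α') = classInner α α' :=
  Cfsg.Agent.Lib.Helper19.PI5B.iso_cl H A hTI α α' hcl' hα hα'

theorem val_A (H : Subgroup G) (A : Set G) (hTI : ∀ x ∈ A, ∀ g : G, g * x * g⁻¹ ∈ A → g ∈ H)
    (α : H → ℂ) (hcl : IsClassFunction H α) (hα : ∀ h : H, α h ≠ 0 → (h : G) ∈ A) (y : H)
    (hy : (y : G) ∈ A) : indFun H α (y : G) = α y :=
  Cfsg.Agent.Lib.Helper19.PI5B.val_in H A hTI α hcl hα y hy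

theorem val_zero (H : Subgroup G) (α : H → ℂ) (g : G)
    (hg : ∀ (x : G) (h : H), (h : G) = x⁻¹ * g * x → α h = 0) : indFun H α g = 0 :=
  Cfsg.Agent.Lib.Helper19.PI5B.val_out H α g (fun x h h0 he => h0 (hg x h he.symm))

theorem lin_A (H : Subgroup G) [Fintype (IrrCharacter H)] (a : IrrCharacter H → ℂ) (g : G) :
    indFun H (fun h : H => ∑ η : IrrCharacter H, a η * (η : H → ℂ) h) g
      = ∑ η : IrrCharacter H, a η * indFun H (η : H → ℂ) g := by
  unfold indFun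
  have h1 : ∀ y : G, extendByZero H (fun h : H => ∑ η : IrrCharacter H, a η * (η : H → ℂ) h) y
      = ∑ η : IrrCharacter H, a η * extendByZero H (η : H → ℂ) y := by
    intro y
    by_cases hy : y ∈ H
    · rw [Cfsg.Agent.Lib.Helper19.extendByZero_of_mem H _ hy]
      apply Finset.sum_congr rfl
      intro η _
      rw [Cfsg.Agent.Lib.Helper19.extendByZero_of_mem H _ hy]
    · rw [Cfsg.Agent.Lib.Helper19.extendByZero_of_not_mem H _ hy]
      symm
      apply Finset.sum_eq_zero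
      intro η _
      rw [Cfsg.Agent.Lib.Helper19.extendByZero_of_not_mem H _ hy, mul_zero]
  simp only [h1]
  rw [Finset.sum_comm, Finset.mul_sum]
  apply Finset.sum_congr rfl
  intro η _
  rw [← Finset.mul_sum]
  ring

end Cfsg.Agent.Lib.Helper82.PI5B
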