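import Cfsg.Agent.Lib.Helper82.PI5B.PACK
import Cfsg.Agent.Lib.Helper83.PI5.Iface

set_option autoImplicit false
set_option linter.unusedSectionVars false

namespace Cfsg.Agent.Lib.Helper82.PI5B

open scoped BigOperators ComplexConjugate
open Cfsg Cfsg.Agent.Lib.Helper20 Cfsg.Agent.Lib.Helper81 Cfsg.Agent.Lib.Helper80
open Cfsg.Agent.Lib.Helper80.GA Cfsg.Agent.Lib.Helper5 Cfsg.Agent.Lib.Helper83.Wat
open Cfsg.Agent.Lib.Helper82.CY2U Cfsg.Agent.Lib.Helper83.PI5

variable {p : ℕ} [Fact p.Prime] {M : Ideal AlgInt} {G : Type*} [Group G] [Fintype G]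

/-- the centraliser of `x` lies in the centraliser of its `p`-part -/
theorem ifc_cent {x u : G} (hu : IsPPart p x u) :
    Subgroup.centralizer ({x} : Set G) ≤ Subgroup.centralizer ({u} : Set G) := by
  have hp := (Fact.out : p.Prime)
  intro y hy
  rw [Subgroup.mem_centralizer_iff] at hy ⊢
  have hyx : x * y = y * x := hy x rfl
  have h1 := isPPart_conj hu y
  have h2 : y * x * y⁻¹ = x := by rw [← hyx, mul_inv_cancel_right]
  rw [h2] at h1
  have h3 := isPPart_unique hp h1 hu
  intro w hw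
  rw [Set.mem_singleton_iff] at hw
  subst hw
  have h4 : y * w = w * y := by
    conv_rhs => rw [← h3]
    group
  exact h4.symm

/-- (B12) in helper83's interface -/
theorem tidata (hM : IsPModular p M) {B : Set (IrrCharacter G)} {P Z : Subgroup G}
    (hPD : IsDefectGroup p M B P) (hcyc : IsCyclic P) (hZ : Z ≤ P) (hZcard : Nat.card Z = p)
    [Fintype (Nn Z)] [Fintype (IrrCharacter (Nn Z))] {c : Set (IrrCharacter (Nn Z))}
    (hc : IsPBlock M c) (hcD : IsDefectGroup p M c (P.subgroupOf (Nn Z))) :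
    TIData p (Nn Z) c (AA p (Nn Z) P) := by
  have hP : IsPGroup p P := by
    obtain ⟨g, -, S, rfl⟩ := hPD
    exact S.2.map _
  refine ⟨fun x hx g hgx => ti_A hP hcyc hZ hZcard rfl hx hgx, ?_,
    fun x hx u hu => cent_A hP hcyc hZ hZcard rfl hx hu, ?_⟩
  · intro x hx
    obtain ⟨u, hu, -⟩ := id hx
    exact (ifc_cent hu).trans (cent_A hP hcyc hZ hZcard rfl hx hu)
  · intro a ha h h0
    exact supp_A hM hc hcD a ha.1 ha.2 h h0

/-- (B3) in helper83's interface -/
theorem b3 (hM : IsPModular p M) {B : Set (IrrCharacter G)} (H : Subgroup G)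
    [Fintype (IrrCharacter H)] {c : Set (IrrCharacter H)} (hind : IsInducedBlock M H c B)
    {A : Set G} (hA : TIData p H c A) {a : IrrCharacter H → ℂ} (ha : a ∈ KK p c)
    {χ : IrrCharacter G} (hχ : χ ∉ B) : classInner (indFun H (lin a)) (χ : G → ℂ) = 0 :=
  inb_A hM H hind a ha.1 (fun h h0 u hu => hA.cpart _ (hA.supp a ha h h0) u hu) hχ

/-- (B4) in helper83's interface -/
theorem b4 (H : Subgroup G) [Fintype H] [Fintype (IrrCharacter H)] {c : Set (IrrCharacter H)}
    {A : Set G} (hA : TIData p H c A) {a a' : IrrCharacter H → ℂ} (ha : a ∈ KK p c)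
    (ha' : a' ∈ KK p c) :
    classInner (indFun H (lin a)) (indFun H (lin a')) = ∑ η : IrrCharacter H, a η * conj (a' η) := by
  rw [iso_A H A hA.ti (lin a) (lin a') (pack_cl a') (hA.supp a ha) (hA.supp a' ha'),
    parseval (f := lin a) (f' := lin a') (pack_cl a) (pack_cl a')]
  apply Finset.sum_congr rfl
  intro η _
  rw [show classInner (lin a) (η : H → ℂ) = a η from pack_coef a η,
    show classInner (lin a') (η : H → ℂ) = a' η from pack_coef a' η]

/-- (B5) in helper83's interface -/
theorem b5 (H : Subgroup G) [Fintype (IrrCharacter H)] (a : IrrCharacter H → ℤ)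
    (χ : IrrCharacter G) :
    ∃ n : ℤ, classInner (indFun H (lin (fun η => (a η : ℂ)))) (χ : G → ℂ) = (n : ℂ) := by
  classical
  choose m hm using fun (η : IrrCharacter H) => exists_mult H η χ
  refine ⟨∑ η : IrrCharacter H, a η * m η, ?_⟩
  have h1 : indFun H (lin (fun η => (a η : ℂ)))
      = ∑ η : IrrCharacter H, (a η : ℂ) • indFun H (η : H → ℂ) := by
    funext g
    rw [show lin (fun η => (a η : ℂ)) = (fun h : H => ∑ η : IrrCharacter H, (a η : ℂ) * (η : H → ℂ) h)
      from rfl, lin_A]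
    simp [Finset.sum_apply]
  rw [h1, classInner_sum_left]
  push_cast
  apply Finset.sum_congr rfl
  intro η _
  rw [classInner_smul_left, hm]

end Cfsg.Agent.Lib.Helper82.PI5B
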