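import Cfsg.Agent.Lib.Helper82.PI5B.B1
import Cfsg.Agent.Lib.Helper82.PI5B.B2
import Cfsg.Agent.Lib.Helper82.PI5B.B3

set_option autoImplicit false
set_option linter.unusedSectionVars false

namespace Cfsg.Agent.Lib.Helper82.PI5B

open scoped BigOperators ComplexConjugate
open Cfsg Cfsg.Agent.Lib.Helper20 Cfsg.Agent.Lib.Helper81 Cfsg.Agent.Lib.Helper80
open Cfsg.Agent.Lib.Helper80.GA Cfsg.Agent.Lib.Helper5 Cfsg.Agent.Lib.Helper83.Wat
open Cfsg.Agent.Lib.Helper82.CY2U

variable {p : ℕ} [Fact p.Prime] {M : Ideal AlgInt} {G : Type*} [Group G] [Fintype G]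

theorem pack_fun {X : Type*} [Group X] [Fintype (IrrCharacter X)] (a : IrrCharacter X → ℂ) :
    (fun h : X => ∑ η : IrrCharacter X, a η * (η : X → ℂ) h)
      = ∑ η : IrrCharacter X, a η • (η : X → ℂ) := by
  funext h
  simp [Finset.sum_apply]

theorem pack_cl {X : Type*} [Group X] [Fintype X] [Fintype (IrrCharacter X)]
    (a : IrrCharacter X → ℂ) :
    IsClassFunction X (fun h : X => ∑ η : IrrCharacter X, a η * (η : X → ℂ) h) := by
  intro g h
  apply Finset.sum_congr rfl
  intro η _
  rw [irr_classFunction η g h]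

theorem pack_coef {X : Type*} [Group X] [Fintype X] [Fintype (IrrCharacter X)]
    (a : IrrCharacter X → ℂ) (θ : IrrCharacter X) :
    classInner (fun h : X => ∑ η : IrrCharacter X, a η * (η : X → ℂ) h) (θ : X → ℂ) = a θ := by
  classical
  rw [pack_fun, classInner_sum_left, Finset.sum_eq_single θ]
  · rw [classInner_smul_left, classInner_irr_self θ.2, mul_one]
  · intro η _ hη
    rw [classInner_smul_left, classInner_irr_ne η.2 θ.2 (fun h => hη (Subtype.ext h)), mul_zero]
  · intro h; exact absurd (Finset.mem_univ _) h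

/-- PART B of PI5, packaged: the induction matrix `m` from `H = N_G(Z)` to `G` maps `KK p c`
isometrically into `KK p B`. -/
theorem pack (hM : IsPModular p M) {B : Set (IrrCharacter G)} {P Z H : Subgroup G}
    (hP : IsPGroup p P) (hcyc : IsCyclic P) (hZ : Z ≤ P) (hZc : Nat.card Z = p)
    (hH : H = Subgroup.normalizer (Z : Set G)) {c : Set (IrrCharacter H)}
    (hcD : IsDefectGroup p M c (P.subgroupOf H)) (hind : IsInducedBlock M H c B)
    [Fintype (IrrCharacter G)] [Fintype (IrrCharacter H)] :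
    ∃ m : IrrCharacter H → IrrCharacter G → ℤ,
      (∀ (a : IrrCharacter H → ℂ) (g : G),
        indFun H (fun h : H => ∑ η : IrrCharacter H, a η * (η : H → ℂ) h) g
          = ∑ χ : IrrCharacter G, (∑ η : IrrCharacter H, a η * (m η χ : ℂ)) * (χ : G → ℂ) g) ∧
      (∀ a ∈ KK p c, (fun χ : IrrCharacter G => ∑ η : IrrCharacter H, a η * (m η χ : ℂ)) ∈ KK p B) ∧
      (∀ a ∈ KK p c, ∀ a' ∈ KK p c,
        ∑ χ : IrrCharacter G, (∑ η : IrrCharacter H, a η * (m η χ : ℂ)) *
            conj (∑ η : IrrCharacter H, a' η * (m η χ : ℂ))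
          = ∑ η : IrrCharacter H, a η * conj (a' η)) := by
  classical
  have : Fintype H := Fintype.ofFinite _
  have hc : IsPBlock M c := hind.1
  choose m hm using fun (η : IrrCharacter H) (χ : IrrCharacter G) => exists_mult H η χ
  have hcoef : ∀ (a : IrrCharacter H → ℂ) (χ : IrrCharacter G),
      classInner (indFun H (fun h : H => ∑ η : IrrCharacter H, a η * (η : H → ℂ) h)) (χ : G → ℂ)
        = ∑ η : IrrCharacter H, a η * (m η χ : ℂ) := by
    intro a χ
    have h1 : indFun H (fun h : H => ∑ η : IrrCharacter H, a η * (η : H → ℂ) h)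
        = ∑ η : IrrCharacter H, a η • indFun H (η : H → ℂ) := by
      funext g
      rw [lin_A]
      simp [Finset.sum_apply]
    rw [h1, classInner_sum_left]
    apply Finset.sum_congr rfl
    intro η _
    rw [classInner_smul_left, hm]
  have hexp : ∀ (a : IrrCharacter H → ℂ) (g : G),
        indFun H (fun h : H => ∑ η : IrrCharacter H, a η * (η : H → ℂ) h) g
          = ∑ χ : IrrCharacter G, (∑ η : IrrCharacter H, a η * (m η χ : ℂ)) * (χ : G → ℂ) g := by
    intro a g
    have h1 := eq_sum_classInner_smul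
      (Cfsg.Agent.Lib.Helper19.indFun_isClassFunction H
        (fun h : H => ∑ η : IrrCharacter H, a η * (η : H → ℂ) h))
    have h2 := congrFun h1 g
    rw [h2]
    simp only [Finset.sum_apply, Pi.smul_apply, smul_eq_mul, hcoef]
  have hsA : ∀ a ∈ KK p c, ∀ h : H, ∑ η : IrrCharacter H, a η * (η : H → ℂ) h ≠ 0 →
      (h : G) ∈ AA p H P := fun a ha => supp_A hM hc hcD a ha.1 ha.2
  have hTI : ∀ x ∈ AA p H P, ∀ g : G, g * x * g⁻¹ ∈ AA p H P → g ∈ H :=
    fun x hx g hgx => ti_A hP hcyc hZ hZc hH hx hgx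
  refine ⟨m, hexp, ?_, ?_⟩
  · intro a ha
    refine ⟨fun χ hχ => ?_, fun g hg => ?_⟩
    · show ∑ η : IrrCharacter H, a η * (m η χ : ℂ) = 0
      rw [← hcoef]
      exact inb_A hM H hind a ha.1
        (fun h h0 u hu => cent_A hP hcyc hZ hZc hH (hsA a ha h h0) hu) hχ
    · show ∑ χ : IrrCharacter G, (∑ η : IrrCharacter H, a η * (m η χ : ℂ)) * (χ : G → ℂ) g = 0
      rw [← hexp]
      exact ind_reg H _ ha.2 hg
  · intro a ha a' ha'
    have h1 := parseval
      (Cfsg.Agent.Lib.Helper19.indFun_isClassFunction H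
        (fun h : H => ∑ η : IrrCharacter H, a η * (η : H → ℂ) h))
      (Cfsg.Agent.Lib.Helper19.indFun_isClassFunction H
        (fun h : H => ∑ η : IrrCharacter H, a' η * (η : H → ℂ) h))
    simp only [hcoef] at h1
    rw [← h1, iso_A H (AA p H P) hTI _ _ (pack_cl a') (hsA a ha) (hsA a' ha'),
      parseval (pack_cl a) (pack_cl a')]
    simp only [pack_coef]

end Cfsg.Agent.Lib.Helper82.PI5B
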